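import Cfsg.Agent.H159.KS.Wt
import Cfsg.Agent.H392.KKL.X2a
import Cfsg.Agent.H406.KKL.RowF4

/-!
# S4577, row `F₄(q)`, `q` odd (helper159)

The involutions of `F₄(q)` have `(-1)`-eigenspaces of dimension `28` or `16` on the Lie algebra and `12` or `16` on the
27-dimensional module. The weight dimensions (`weights`) exclude all patterns.
-/

set_option autoImplicit false

namespace Cfsg.Agent.H159.KS

open Module Cfsg.Lie Cfsg.Agent.H613.KS Cfsg.Agent.H952.F4 Cfsg.Agent.H815.F4Tor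
open Cfsg.Agent.ChevalleyStructure Cfsg.Agent.ChevalleyStructure.E6Min.Tables
  Cfsg.Agent.ChevalleyStructure.E6Min.Basic
open Cfsg.Agent.OddHalf.NI.ModelChev Cfsg.Agent.H557.SignTorus Cfsg.Agent.H557.InvClass
  Cfsg.Agent.H557.ToralTypes Cfsg.Agent.H557.OrbF4 Cfsg.Agent.H557.InvF4
open Cfsg.Agent.Nodes.RGDChev Cfsg.Agent.KFacts.RgdChevCoord
open Cfsg.Agent.GenExc Cfsg.Agent.GenExc.Chev Cfsg.Agent.OddHalf.LongSL.Chev
open Cfsg.Agent.H406.KKL (R cnt cnt_B4 cnt_C3A1 dim_th)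
open Cfsg.Agent.H392.KKL (rho finrank_of_isConj finrank_zS dim_F4)

/-- `th` of a single sign -/
theorem th_single {K : Type} [Field K] (i : Fin 4) (m : ℕ) (hm : ∀ j : Fin 4, m.testBit j = decide (j = i)) :
    th typeF4 (sg K 4 m) = zS isType_F4 K [i] := by
  have h5 : sg K 4 m = Pi.mulSingle i (-1 : Kˣ) := by
    funext j
    unfold Cfsg.Agent.H557.SignTorus.sg
    rw [hm]
    by_cases h : j = i
    · subst h; simp
    · simp [h]
  rw [h5]
  have e2 : zS isType_F4 K [i] = Cfsg.Agent.KFacts.RgdChevCoord.hc typeF4 i (-1 : K) := by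
    rw [zS_cons, zS_nil, mul_one]
    exact Subtype.ext (phi_neg_one isType_F4 K i)
  rw [e2]
  show ((thT typeF4 (Pi.mulSingle i (-1 : Kˣ)) : ↥(TT chevF4 K)) : ↥(chevF4.group K)) = _
  rw [thT_mulSingle, coe_hcH]
  simp

/-- the two classes of involutions -/
theorem types {K : Type} [Field K] [Fintype K] (ho : Odd (Fintype.card K)) (h2 : (2 : K) ≠ 0)
    {ρ : ↥(chevF4.group K) →* GL I27 K} (hρ : IsJ ρ) {a : ↥(chevF4.group K)} (haa : a * a = 1) (a1 : a ≠ 1) :
    (ed (rho chevF4 K) a = 28 ∧ ed (R ρ) a = 12) ∨ (ed (rho chevF4 K) a = 16 ∧ ed (R ρ) a = 16) := by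
  obtain ⟨p, hpp, hpc, hp2⟩ := exists_char K ho
  have : Fact p.Prime := ⟨hpp⟩
  obtain ⟨g, hg⟩ := toral_F4 ho haa
  obtain ⟨b, hb⟩ := surj_F4 hg
  have hb2 : b * b = 1 := by
    apply inj_F4
    rw [map_mul, hb]
    have : g * a * g⁻¹ * (g * a * g⁻¹) = g * (a * a) * g⁻¹ := by group
    rw [this, haa, mul_one, mul_inv_cancel]
  obtain ⟨m, hm, rfl⟩ := exists_sg hb2
  have c4 : IsConj a (th typeF4 (sg K 4 m)) := isConj_iff.2 ⟨g, hb.symm⟩
  have hJ : ed (R ρ) a = cnt m := by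
    unfold ed
    rw [finrank_of_isConj (R ρ) c4.symm]
    exact dim_th h2 hρ m
  rcases cover m hm with h | h | h
  · subst h
    rw [sg_zero, map_one] at hb
    exfalso
    apply a1
    have h3 : a = g⁻¹ * (g * a * g⁻¹) * g := by group
    rw [h3, ← hb, mul_one, inv_mul_cancel]
  · right
    refine ⟨?_, by rw [hJ, cnt_B4 m hm h]⟩
    have c1 := D_TabB4.conj hcm (K := K) p (m := 1) (by decide)
    have c2 := D_TabB4.conj hcm (K := K) p h
    have c5 : IsConj (zS isType_F4 K [0]) a := by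
      rw [← th_single 0 1 (by decide)]
      exact c1.trans (c2.symm.trans c4.symm)
    unfold ed
    rw [finrank_of_isConj (rho chevF4 K) c5]
    exact finrank_zS isType_F4 (CoxeterMatrix.F₄).toCoxeterSystem h2 [0] (by decide +kernel)
  · left
    refine ⟨?_, by rw [hJ, cnt_C3A1 m hm h]⟩
    have c1 := D_TabC3A1.conj hcm (K := K) p (m := 8) (by decide)
    have c2 := D_TabC3A1.conj hcm (K := K) p h
    have c5 : IsConj (zS isType_F4 K [3]) a := by
      rw [← th_single 3 8 (by decide)]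
      exact c1.trans (c2.symm.trans c4.symm)
    exact dim_F4 h2 c5

/-- **the row `F₄(q)`, `q` odd** -/
theorem E_F4 {F : Type} [Field F] [Fintype F] {p : ℕ} [Fact p.Prime] [CharP F p] (hp : p ≠ 2) :
    NoCfg ↥(Lie.chevF4.group F) := by
  have h2 : (2 : F) ≠ 0 := by
    intro h
    have h1 : ((2 : ℕ) : F) = 0 := by exact_mod_cast h
    have h3 := (CharP.cast_eq_zero_iff F p 2).1 h1
    exact hp ((Nat.prime_dvd_prime_iff_eq Fact.out Nat.prime_two).1 h3)
  have ho : Odd (Fintype.card F) := by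
    obtain ⟨n, hpp, hn⟩ := FiniteField.card F p
    rw [hn]
    exact (hpp.odd_of_ne_two hp).pow
  intro D x hc
  obtain ⟨ρ, hρ⟩ := JMod.exists_isJ F
  obtain ⟨y, hy⟩ := hc.five
  have h16 := hc.e16
  obtain ⟨a, ha, a1⟩ : ∃ a ∈ D, a ≠ 1 := by
    by_contra hcon
    push Not at hcon
    have h3 : D = ⊥ := by
      rw [eq_bot_iff]
      exact fun a ha => Subgroup.mem_bot.2 (hcon a ha)
    have h4 := h16.card
    rw [h3, Subgroup.card_bot] at h4
    omega
  have t1 := types ho h2 hρ (h16.inv a ha) a1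
  have hb := D.mul_mem ha (cy_mem hy ha 1)
  have hc' := D.mul_mem ha (cy_mem hy ha 2)
  have t2 := types ho h2 hρ (h16.inv _ hb) (mul_cy_ne h16 hy ha a1 (Or.inl rfl))
  have t3 := types ho h2 hρ (h16.inv _ hc') (mul_cy_ne h16 hy ha a1 (Or.inr rfl))
  obtain ⟨f, w₁, w₂, w₃, k0, k1, k2, k3⟩ := weights h2 (rho chevF4 F) h16 hy ha
  obtain ⟨f', v₁, v₂, v₃, l0, l1, l2, l3⟩ := weights h2 (R ρ) h16 hy ha
  rw [Module.finrank_fintype_fun_eq_card] at l0
  have h27 : Fintype.card I27 = 27 := rfl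
  rw [h27] at l0
  omega

end Cfsg.Agent.H159.KS
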